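import Mathlib
import Cfsg.Prelude.Def_Characters
import Cfsg.Agent.Lib.H4.FixedCount
import Cfsg.Agent.Lib.H18.CharQuot
import Cfsg.Agent.Lib.H31.Clifford

/-!
# Frobenius groups given as `K H` (H4.FrobGrp)

Hypotheses: `K` normal, `K ⊓ H = ⊥`, `K ⊔ H = ⊤`, and no nonidentity element of `H` commutes with a
nonidentity element of `K`.
-/

set_option autoImplicit false
open Cfsg Representation
open scoped ComplexConjugate

namespace H4.FrobGrp

open H4.CharBasic H4.CharOrth H4.CharCount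

universe u v w

variable {G : Type u} [Group G] [Finite G] {K H : Subgroup G} [hKn : K.Normal]

omit [Finite G] in
/-- every element is `k * h` -/
theorem exists_mul (hKH' : K ⊔ H = ⊤) (g : G) : ∃ k ∈ K, ∃ h ∈ H, g = k * h := by
  have h1 : g ∈ ((K ⊔ H : Subgroup G) : Set G) := by rw [hKH']; trivial
  rw [Subgroup.normal_mul K H] at h1
  obtain ⟨k, hk, h, hh, rfl⟩ := Set.mem_mul.mp h1
  exact ⟨k, hk, h, hh, rfl⟩

/-- `k * h` with `h ≠ 1` is a `K`-conjugate of `h` -/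
theorem exists_conj (hfpf : ∀ h ∈ H, h ≠ 1 → ∀ k ∈ K, h * k = k * h → k = 1)
    {k h : G} (hk : k ∈ K) (hh : h ∈ H) (h1 : h ≠ 1) : ∃ c ∈ K, k * h = c * h * c⁻¹ := by
  let f : K → K := fun c => ⟨(c : G) * h * (c : G)⁻¹ * h⁻¹, by
    have h2 : h * (c : G)⁻¹ * h⁻¹ ∈ K := hKn.conj_mem _ (K.inv_mem c.2) h
    have h3 := K.mul_mem c.2 h2
    have h4 : (c : G) * h * (c : G)⁻¹ * h⁻¹ = (c : G) * (h * (c : G)⁻¹ * h⁻¹) := by group
    rw [h4]; exact h3⟩
  have hf : Function.Injective f := by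
    intro a b hab
    have e1 : (a : G) * h * (a : G)⁻¹ * h⁻¹ = (b : G) * h * (b : G)⁻¹ * h⁻¹ :=
      congrArg Subtype.val hab
    have e2 : (a : G) * h * (a : G)⁻¹ = (b : G) * h * (b : G)⁻¹ := mul_right_cancel e1
    have e3 : h * ((b : G)⁻¹ * a) = ((b : G)⁻¹ * a) * h := by
      calc h * ((b : G)⁻¹ * a) = (b : G)⁻¹ * (b * h * (b : G)⁻¹) * a := by group
        _ = ((b : G)⁻¹ * a) * h := by rw [← e2]; group
    have e4 := hfpf h hh h1 _ (K.mul_mem (K.inv_mem b.2) a.2) e3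
    apply Subtype.ext
    calc (a : G) = b * ((b : G)⁻¹ * a) := by group
      _ = b := by rw [e4, mul_one]
  obtain ⟨c, hc⟩ := (Finite.injective_iff_surjective.mp hf) ⟨k, hk⟩
  have hc' : (c : G) * h * (c : G)⁻¹ * h⁻¹ = k := congrArg Subtype.val hc
  exact ⟨c, c.2, by rw [← hc']; group⟩

/-- elements outside `K` are conjugate under `K` into `H` -/
theorem exists_conj_of_not_mem (hKH' : K ⊔ H = ⊤)
    (hfpf : ∀ h ∈ H, h ≠ 1 → ∀ k ∈ K, h * k = k * h → k = 1) {g : G} (hg : g ∉ K) :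
    ∃ c ∈ K, ∃ h ∈ H, h ≠ 1 ∧ g = c * h * c⁻¹ := by
  obtain ⟨k, hk, h, hh, rfl⟩ := exists_mul hKH' g
  have h1 : h ≠ 1 := by
    rintro rfl
    apply hg; simpa using hk
  obtain ⟨c, hc, he⟩ := exists_conj hfpf hk hh h1
  exact ⟨c, hc, h, hh, h1, he⟩

/-- nonidentity elements of `K` do not commute with elements outside `K` -/
theorem eq_one_of_commute (hKH' : K ⊔ H = ⊤)
    (hfpf : ∀ h ∈ H, h ≠ 1 → ∀ k ∈ K, h * k = k * h → k = 1) {g : G} (hg : g ∉ K)
    {k : G} (hk : k ∈ K) (hc : g * k = k * g) : k = 1 := by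
  obtain ⟨c, hcK, h, hh, h1, rfl⟩ := exists_conj_of_not_mem hKH' hfpf hg
  have h2 : h * (c⁻¹ * k * c) = (c⁻¹ * k * c) * h := by
    calc h * (c⁻¹ * k * c) = c⁻¹ * (c * h * c⁻¹ * k) * c := by group
      _ = (c⁻¹ * k * c) * h := by rw [hc]; group
  have h3 : c⁻¹ * k * c ∈ K := by simpa using hKn.conj_mem k hk c⁻¹
  have h4 := hfpf h hh h1 _ h3 h2
  calc k = c * (c⁻¹ * k * c) * c⁻¹ := by group
    _ = 1 := by rw [h4]; group

/-- if an element outside `K` fixes an irreducible character of `K`, that character is trivial -/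
theorem eq_one_of_fixed (hKH' : K ⊔ H = ⊤)
    (hfpf : ∀ h ∈ H, h ≠ 1 → ∀ k ∈ K, h * k = k * h → k = 1) {g : G} (hg : g ∉ K)
    {τ : K → ℂ} (hτ : IsIrrCharacter K τ) (hfix : H18.CharQuot.conjFunN K g τ = τ) :
    τ = fun _ => 1 := by
  classical
  have h1 := H4.FixedCount.card_fixed_eq (G := K)
    (fun k => ⟨g * k * g⁻¹, hKn.conj_mem k k.2 g⟩)
    (fun χ hχ => H18.CharQuot.isIrrCharacter_conjN K g hχ)
  have h2 : Nat.card {C : ConjClasses K // ∀ k : K, ConjClasses.mk k = C →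
      IsConj (⟨g * k * g⁻¹, hKn.conj_mem k k.2 g⟩ : K) k} = 1 := by
    rw [Nat.card_eq_one_iff_exists]
    refine ⟨⟨ConjClasses.mk 1, ?_⟩, ?_⟩
    · intro k hk
      have : k = 1 := isConj_one_left.mp (ConjClasses.mk_eq_mk_iff_isConj.mp hk)
      subst this
      have : (⟨g * ((1 : K) : G) * g⁻¹, hKn.conj_mem _ (1 : K).2 g⟩ : K) = 1 := by
        apply Subtype.ext; simp
      rw [this]
    · rintro ⟨C, hC⟩
      obtain ⟨k, rfl⟩ := ConjClasses.exists_rep C
      obtain ⟨x, hx⟩ := isConj_iff.mp (hC k rfl)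
      have hx' : (x : G) * (g * k * g⁻¹) * (x : G)⁻¹ = k := congrArg Subtype.val hx
      have hxg : (x : G) * g ∉ K := fun h => hg (by
        have := K.mul_mem (K.inv_mem x.2) h
        simpa using this)
      have h3 : (x * g : G) * k = k * (x * g) := by
        calc (x * g : G) * k = ((x : G) * (g * k * g⁻¹) * (x : G)⁻¹) * (x * g) := by group
          _ = k * (x * g) := by rw [hx']
      have h4 : k = 1 := Subtype.ext (eq_one_of_commute hKH' hfpf hxg k.2 h3)
      subst h4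
      rfl
  rw [h2, Nat.card_eq_one_iff_exists] at h1
  obtain ⟨x, hx⟩ := h1
  have e1 := hx ⟨⟨τ, hτ⟩, hfix⟩
  have e2 := hx ⟨⟨1, isIrrCharacter_one⟩, by ext k; rfl⟩
  have e3 := congrArg (fun y => ((Subtype.val y : IrrCharacter K) : K → ℂ)) (e1.trans e2.symm)
  exact e3

/-- characters of `K` other than the trivial one induce irreducibly -/
theorem isIrr_ind [Fintype G] (hKH' : K ⊔ H = ⊤)
    (hfpf : ∀ h ∈ H, h ≠ 1 → ∀ k ∈ K, h * k = k * h → k = 1)
    {τ : K → ℂ} (hτ : IsIrrCharacter K τ) (hτ1 : τ ≠ fun _ => 1) :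
    IsIrrCharacter G (indFun K τ) := by
  have := Fintype.ofFinite K
  have hin : H31.Clifford.inertia K τ = K := by
    ext g
    rw [H31.Clifford.mem_inertia]
    constructor
    · intro h
      by_contra hg
      exact hτ1 (eq_one_of_fixed hKH' hfpf hg hτ h)
    · intro hg
      exact H31.Clifford.cj_mem K (IsIrrCharacter.isClassFunction hτ) hg
  have h1 := H31.Clifford.norm_ind K hτ
  rw [hin] at h1
  have h2 : (Nat.card K : ℂ) ≠ 0 := by exact_mod_cast (Nat.card_pos (α := K)).ne'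
  have h3 : classInner (indFun K τ) (indFun K τ) = 1 := by
    have : (Nat.card K : ℂ) * classInner (indFun K τ) (indFun K τ) = (Nat.card K : ℂ) * 1 := by
      rw [h1, mul_one]
    exact mul_left_cancel₀ h2 this
  exact H18.CharOrtho.isIrr_of_norm_one
    (H18.CharInd.isCharacter_ind K (IsIrrCharacter.isCharacter hτ)) h3

omit [Finite G] hKn in
theorem card_eq_mul (hKH : K ⊓ H = ⊥) (hKH' : K ⊔ H = ⊤) [K.Normal] :
    Nat.card G = Nat.card K * Nat.card H := by
  have : Subgroup.IsComplement' K H := by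
    apply Subgroup.isComplement'_of_disjoint_and_mul_eq_univ
    · rw [disjoint_iff]; exact hKH
    · rw [← Subgroup.normal_mul, hKH']; rfl
  exact this.card_mul_card.symm

/-- number of commuting pairs -/
theorem card_comm_pairs (G : Type u) [Group G] [Finite G] :
    Nat.card {p : G × G // Commute p.1 p.2} = Nat.card (ConjClasses G) * Nat.card G := by
  exact card_comm_eq_card_conjClasses_mul_card G

theorem class_count (hKH : K ⊓ H = ⊥) (hKH' : K ⊔ H = ⊤)
    (hfpf : ∀ h ∈ H, h ≠ 1 → ∀ k ∈ K, h * k = k * h → k = 1) :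
    Nat.card H * Nat.card (ConjClasses G) + 1 =
      Nat.card H * Nat.card (ConjClasses H) + Nat.card (ConjClasses K) := by
  classical
  have hdisj : ∀ x : G, x ∈ K → x ∈ H → x = 1 := by
    intro x hK hH
    have : x ∈ K ⊓ H := ⟨hK, hH⟩
    rw [hKH] at this
    exact Subgroup.mem_bot.mp this
  -- pairs in G, split
  let P := {p : G × G // Commute p.1 p.2}
  have hsplit : Nat.card P = Nat.card {p : P // p.1.1 ∈ K ∧ p.1.2 ∈ K} +
      Nat.card {p : P // ¬ (p.1.1 ∈ K ∧ p.1.2 ∈ K)} := by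
    rw [← Nat.card_sum]
    exact Nat.card_congr (Equiv.sumCompl _).symm
  have hin : Nat.card {p : P // p.1.1 ∈ K ∧ p.1.2 ∈ K} =
      Nat.card {p : K × K // Commute p.1 p.2} := by
    refine Nat.card_congr ⟨fun p => ⟨(⟨p.1.1.1, p.2.1⟩, ⟨p.1.1.2, p.2.2⟩), ?_⟩,
      fun p => ⟨⟨((p.1.1 : G), (p.1.2 : G)), ?_⟩, ⟨p.1.1.2, p.1.2.2⟩⟩, fun _ => rfl, fun _ => rfl⟩
    · exact Subtype.ext p.1.2.eq
    · exact congrArg Subtype.val p.2.eq
  have hsplitH : Nat.card {p : H × H // Commute p.1 p.2} = 1 +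
      Nat.card {p : {p : H × H // Commute p.1 p.2} // p.1 ≠ 1} := by
    have : Nat.card {p : {p : H × H // Commute p.1 p.2} // p.1 = 1} = 1 := by
      rw [Nat.card_eq_one_iff_exists]
      refine ⟨⟨⟨1, Commute.refl 1⟩, rfl⟩, ?_⟩
      rintro ⟨⟨p, hp⟩, hp1⟩
      have : p = 1 := hp1
      subst this
      rfl
    rw [← this, ← Nat.card_sum]
    exact Nat.card_congr (Equiv.sumCompl _).symm
  have hout : Nat.card {p : P // ¬ (p.1.1 ∈ K ∧ p.1.2 ∈ K)} =
      Nat.card K * Nat.card {p : {p : H × H // Commute p.1 p.2} // p.1 ≠ 1} := by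
    rw [← Nat.card_prod]
    symm
    let F : K × {p : {p : H × H // Commute p.1 p.2} // p.1 ≠ 1} →
        {p : P // ¬ (p.1.1 ∈ K ∧ p.1.2 ∈ K)} := fun x =>
      ⟨⟨((x.1 : G) * (x.2.1.1.1 : G) * (x.1 : G)⁻¹, (x.1 : G) * (x.2.1.1.2 : G) * (x.1 : G)⁻¹), by
          have h1 : (x.2.1.1.1 : G) * x.2.1.1.2 = x.2.1.1.2 * x.2.1.1.1 :=
            congrArg Subtype.val x.2.1.2.eq
          show (x.1 : G) * (x.2.1.1.1 : G) * (x.1 : G)⁻¹ *
            ((x.1 : G) * (x.2.1.1.2 : G) * (x.1 : G)⁻¹) = (x.1 : G) * (x.2.1.1.2 : G) * (x.1 : G)⁻¹ *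
            ((x.1 : G) * (x.2.1.1.1 : G) * (x.1 : G)⁻¹)
          calc _ = (x.1 : G) * ((x.2.1.1.1 : G) * x.2.1.1.2) * (x.1 : G)⁻¹ := by group
            _ = _ := by rw [h1]; group⟩, by
        rintro ⟨h1, h2⟩
        apply x.2.2
        have h3 : (x.2.1.1.1 : G) ∈ K := by
          have := hKn.conj_mem _ h1 (x.1 : G)⁻¹
          simpa [mul_assoc] using this
        have h4 : (x.2.1.1.2 : G) ∈ K := by
          have := hKn.conj_mem _ h2 (x.1 : G)⁻¹
          simpa [mul_assoc] using this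
        apply Prod.ext
        · exact Subtype.ext (hdisj _ h3 x.2.1.1.1.2)
        · exact Subtype.ext (hdisj _ h4 x.2.1.1.2.2)⟩
    refine Nat.card_congr (Equiv.ofBijective F ⟨?_, ?_⟩)
    · rintro ⟨c, ⟨⟨⟨h1, h2⟩, hc⟩, hne⟩⟩ ⟨d, ⟨⟨⟨h1', h2'⟩, hc'⟩, hne'⟩⟩ heq
      have e := congrArg (fun y : {p : P // ¬ (p.1.1 ∈ K ∧ p.1.2 ∈ K)} => (y.1.1 : G × G)) heq
      have e1 : (c : G) * (h1 : G) * (c : G)⁻¹ = (d : G) * (h1' : G) * (d : G)⁻¹ :=
        congrArg Prod.fst e
      have e2 : (c : G) * (h2 : G) * (c : G)⁻¹ = (d : G) * (h2' : G) * (d : G)⁻¹ :=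
        congrArg Prod.snd e
      have key : ∀ {a b : H}, (c : G) * (a : G) * (c : G)⁻¹ = (d : G) * (b : G) * (d : G)⁻¹ →
          a = b ∧ (a ≠ 1 → c = d) := by
        intro a b hab
        -- a b⁻¹ ∈ K
        have hab' : (a : G) * (b : G)⁻¹ ∈ K := by
          have e3 : (a : G) = ((c : G)⁻¹ * d) * (b : G) * ((c : G)⁻¹ * d)⁻¹ := by
            calc (a : G) = (c : G)⁻¹ * (c * a * (c : G)⁻¹) * c := by group
              _ = _ := by rw [hab]; group
          rw [e3]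
          have e4 : (c : G)⁻¹ * d ∈ K := K.mul_mem (K.inv_mem c.2) d.2
          have e5 : (b : G) * ((c : G)⁻¹ * d)⁻¹ * (b : G)⁻¹ ∈ K :=
            hKn.conj_mem _ (K.inv_mem e4) b
          have e6 := K.mul_mem e4 e5
          have e7 : ((c : G)⁻¹ * d) * (b : G) * ((c : G)⁻¹ * d)⁻¹ * (b : G)⁻¹ =
            ((c : G)⁻¹ * d) * ((b : G) * ((c : G)⁻¹ * d)⁻¹ * (b : G)⁻¹) := by group
          rw [e7]; exact e6
        have hab1 := hdisj _ hab' (H.mul_mem a.2 (H.inv_mem b.2))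
        have hab2 : a = b := Subtype.ext (mul_inv_eq_one.mp hab1)
        refine ⟨hab2, fun hne1 => ?_⟩
        subst hab2
        have e3 : (a : G) * ((d : G)⁻¹ * c) = ((d : G)⁻¹ * c) * a := by
          calc (a : G) * ((d : G)⁻¹ * c) = (d : G)⁻¹ * (d * a * (d : G)⁻¹) * c := by group
            _ = ((d : G)⁻¹ * c) * a := by rw [← hab]; group
        have e4 := hfpf a a.2 (fun h => hne1 (Subtype.ext h)) _
          (K.mul_mem (K.inv_mem d.2) c.2) e3
        apply Subtype.ext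
        calc (c : G) = d * ((d : G)⁻¹ * c) := by group
          _ = d := by rw [e4, mul_one]
      obtain ⟨k1, k1'⟩ := key e1
      obtain ⟨k2, k2'⟩ := key e2
      subst k1 k2
      have hcd : c = d := by
        by_cases hh1 : h1 = 1
        · apply k2'
          intro hh2
          apply hne
          exact Prod.ext hh1 hh2
        · exact k1' hh1
      subst hcd
      rfl
    · rintro ⟨⟨⟨y1, y2⟩, hcomm⟩, hnot⟩
      have key : ∀ (a b : G), a ∉ K → a * b = b * a → ∃ c ∈ K, ∃ h ∈ H, ∃ h' ∈ H, h ≠ 1 ∧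
          a = c * h * c⁻¹ ∧ b = c * h' * c⁻¹ ∧ h * h' = h' * h := by
        intro a b ha hab
        obtain ⟨c, hcK, h, hh, h1, rfl⟩ := exists_conj_of_not_mem hKH' hfpf ha
        have hb' : h * (c⁻¹ * b * c) = (c⁻¹ * b * c) * h := by
          calc h * (c⁻¹ * b * c) = c⁻¹ * (c * h * c⁻¹ * b) * c := by group
            _ = (c⁻¹ * b * c) * h := by rw [hab]; group
        obtain ⟨k2, hk2, h2, hh2, he⟩ := exists_mul hKH' (c⁻¹ * b * c)
        rw [he] at hb'
        -- h k2 h2 h⁻¹ = k2 h2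
        have e1 : (h * k2 * h⁻¹) * (h * h2 * h⁻¹) = k2 * h2 := by
          calc (h * k2 * h⁻¹) * (h * h2 * h⁻¹) = h * (k2 * h2) * h⁻¹ := by group
            _ = k2 * h2 := by rw [hb']; group
        have e2 : k2⁻¹ * (h * k2 * h⁻¹) = h2 * (h * h2 * h⁻¹)⁻¹ := by
          calc k2⁻¹ * (h * k2 * h⁻¹) = k2⁻¹ * ((h * k2 * h⁻¹) * (h * h2 * h⁻¹)) *
                (h * h2 * h⁻¹)⁻¹ := by group
            _ = h2 * (h * h2 * h⁻¹)⁻¹ := by rw [e1]; group
        have e3 : k2⁻¹ * (h * k2 * h⁻¹) ∈ K := K.mul_mem (K.inv_mem hk2) (hKn.conj_mem _ hk2 h)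
        have e4 : k2⁻¹ * (h * k2 * h⁻¹) ∈ H := by
          rw [e2]
          exact H.mul_mem hh2 (H.inv_mem (H.mul_mem (H.mul_mem hh hh2) (H.inv_mem hh)))
        have e5 := hdisj _ e3 e4
        have e6 : h * k2 = k2 * h := by
          calc h * k2 = k2 * (k2⁻¹ * (h * k2 * h⁻¹)) * h := by group
            _ = k2 * h := by rw [e5]; group
        have e7 := hfpf h hh h1 k2 hk2 e6
        rw [e7, one_mul] at he hb'
        refine ⟨c, hcK, h, hh, h2, hh2, h1, rfl, ?_, hb'⟩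
        rw [← he]; group
      by_cases hy1 : y1 ∈ K
      · have hy2 : y2 ∉ K := fun h => hnot ⟨hy1, h⟩
        obtain ⟨c, hc, h, hh, h', hh', h1, e1, e2, e3⟩ := key y2 y1 hy2 hcomm.symm.eq
        refine ⟨⟨⟨c, hc⟩, ⟨⟨(⟨h', hh'⟩, ⟨h, hh⟩), Subtype.ext e3.symm⟩, ?_⟩⟩, ?_⟩
        · intro hcon
          have := congrArg (fun p : H × H => (p.2 : G)) hcon
          exact h1 this
        · apply Subtype.ext
          apply Subtype.ext
          exact Prod.ext e2.symm e1.symm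
      · obtain ⟨c, hc, h, hh, h', hh', h1, e1, e2, e3⟩ := key y1 y2 hy1 hcomm.eq
        refine ⟨⟨⟨c, hc⟩, ⟨⟨(⟨h, hh⟩, ⟨h', hh'⟩), Subtype.ext e3⟩, ?_⟩⟩, ?_⟩
        · intro hcon
          have := congrArg (fun p : H × H => (p.1 : G)) hcon
          exact h1 this
        · apply Subtype.ext
          apply Subtype.ext
          exact Prod.ext e1.symm e2.symm
  have hG := card_comm_pairs G
  have hK := card_comm_pairs K
  have hH := card_comm_pairs H
  have hGc := card_eq_mul hKH hKH'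
  have hKpos : 0 < Nat.card K := Nat.card_pos
  have e1 : Nat.card (ConjClasses G) * (Nat.card K * Nat.card H) =
      Nat.card (ConjClasses K) * Nat.card K +
      Nat.card K * Nat.card {p : {p : H × H // Commute p.1 p.2} // p.1 ≠ 1} := by
    rw [← hGc, ← hG, ← hK]
    show Nat.card P = _
    rw [hsplit, hin, hout]
  have e2 : Nat.card K * (Nat.card H * Nat.card (ConjClasses G) + 1) =
      Nat.card K * (Nat.card H * Nat.card (ConjClasses H) + Nat.card (ConjClasses K)) := by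
    have e3 : Nat.card H * Nat.card (ConjClasses H) = 1 +
      Nat.card {p : {p : H × H // Commute p.1 p.2} // p.1 ≠ 1} := by
      rw [← hsplitH, hH, mul_comm]
    rw [e3]
    calc Nat.card K * (Nat.card H * Nat.card (ConjClasses G) + 1) =
        Nat.card (ConjClasses G) * (Nat.card K * Nat.card H) + Nat.card K := by ring
      _ = _ := by rw [e1]; ring
  exact Nat.eq_of_mul_eq_mul_left hKpos e2

end H4.FrobGrp
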