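import Cfsg.Agent.Lib.H4.PF14End
import Cfsg.Agent.Lib.H18.Wiring2
import Cfsg.Agent.S1472

/-! The odd order theorem from the local analysis (`BG`) and from (11.9) (`T3`). -/

set_option autoImplicit false
set_option linter.unusedSectionVars false

namespace H4.PF14

open Cfsg Subgroup H60.TypeIWeak H18.Wiring

universe u

/-- the form of section 11 used in section 14 -/
theorem fact11 {G : Type u} [Group G] (h3 : T3 G) : Fact11 G := by
  intro M W₁ U W₂ _ hM hP h
  obtain ⟨a0, -, a1, a2, a3, -, -, -, a4, -, a5, a6, -, -⟩ := h3 hM hP h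
  exact ⟨a0, a1, a2, a3, a4, a5, a6⟩

/-- the statement of S1544 -/
theorem finalConfig (h : ∀ (G : Type u) [Group G] [Finite G], IsMinSimpleOddOrder G → BG G)
    (h3 : ∀ (G : Type u) [Group G] [Finite G], IsMinSimpleOddOrder G → T3 G) :
    Lead.OddAssembly.FinalConfig.{u} := by
  intro G _ _ hG S T W₁ W₂ U V hS hT hSP hTP hST hII hS25 hT25 hlt
  haveI : Fintype G := Fintype.ofFinite _
  exact s1544 (h G hG).toLocal (fact11 (h3 G hG)) ((h G hG).facts12 (h3 G hG))
    ⟨hG, hS, hT, hSP, hTP, hST, hII, hS25, hT25⟩ hlt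

/-- **the odd order theorem** from the local analysis and from (11.9) -/
theorem odd_order (h : ∀ (G : Type u) [Group G] [Finite G], IsMinSimpleOddOrder G → BG G)
    (h3 : ∀ (G : Type u) [Group G] [Finite G], IsMinSimpleOddOrder G → T3 G)
    {G : Type u} [Group G] [Finite G] (hG : Odd (Nat.card G)) : Group.IsSolvable G :=
  Lead.OddAssembly2.odd_order_weak (structureW h) (notAllW h h3) (finalConfig h h3)
    (fun {_} _ _ => Cfsg.Agent.S1472.result) hG

end H4.PF14
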