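import Mathlib
import Cfsg.Agent.Lib.H18.TW4

/-!
# (TW): the column of `J` on the normal complement
-/

set_option autoImplicit false
set_option maxHeartbeats 400000
set_option linter.unusedSectionVars false
set_option linter.unusedVariables false
set_option linter.style.haveILetI false
open Cfsg H20.Col H5.DBa H5.DBb H5.DBc H5.DBd H5.DBg H5.DBh H18.TW H18.CharBasic H18.CharOrtho H18.CharInd
open scoped ComplexConjugate

universe u

namespace H4.TW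

section kk
variable {G : Type u} [Group G] [Finite G]
variable {P : Sylow 2 G} {σ : G} {n : ℕ} {π : Cen (JJ σ n) →* G}

theorem dkk (h : DS P σ n) (hπ : PI P σ n π) : KK h π.ker where
  nrm := inferInstance
  compl := by
    apply Subgroup.isComplement'_of_disjoint_and_mul_eq_univ
    · rw [Subgroup.disjoint_def]
      intro x hx hxP
      have h1 := hπ.id x ((mem_PJ h x).1 hxP)
      rw [MonoidHom.mem_ker.1 hx] at h1
      exact Subtype.ext h1.symm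
    · rw [Set.eq_univ_iff_forall]
      intro g
      have hc : π g ∈ Cen (JJ σ n) := P_le h (hπ.mem g)
      refine Set.mem_mul.2 ⟨g * (⟨π g, hc⟩ : Cen (JJ σ n))⁻¹, ?_, ⟨π g, hc⟩, ?_, ?_⟩
      · rw [SetLike.mem_coe, MonoidHom.mem_ker, map_mul, map_inv, hπ.id ⟨π g, hc⟩ (hπ.mem g), mul_inv_cancel]
      · exact (mem_PJ h _).2 (hπ.mem g)
      · rw [inv_mul_cancel_right]

theorem dker_odd (h : DS P σ n) (hπ : PI P σ n π) : ¬ 2 ∣ Nat.card π.ker := (dkk h hπ).odd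

theorem dker_index (h : DS P σ n) (hπ : PI P σ n π) : π.ker.index = 2 ^ n := (dkk h hπ).index

end kk

theorem alt_sum (d : ℕ → ℂ) (p : ℕ) (hp : Even (p + 1)) (h0 : d 0 = 0)
    (hs : ∀ k, 0 < k → k < 2 * (p + 1) → d (2 * (p + 1) - k) = d k) :
    ∑ k ∈ Finset.range (2 * (p + 1)), (-1 : ℂ) ^ k * d k =
      d (p + 1) - 2 * ∑ j ∈ Finset.range p, (-1 : ℂ) ^ j * d (j + 1) := by
  have h1 : 2 * (p + 1) = (p + 1) + (p + 1) := by ring
  rw [h1, Finset.sum_range_add, Finset.sum_range_succ', Finset.sum_range_succ', h0, mul_zero, add_zero, add_zero,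
    hp.neg_one_pow, one_mul]
  have h2 : ∑ x ∈ Finset.range p, (-1 : ℂ) ^ (x + 1) * d (x + 1) = - ∑ j ∈ Finset.range p, (-1 : ℂ) ^ j * d (j + 1) := by
    rw [← Finset.sum_neg_distrib]
    refine Finset.sum_congr rfl fun x _ => ?_
    rw [pow_succ]; ring
  have h3 : ∑ x ∈ Finset.range p, (-1 : ℂ) ^ (p + 1 + (x + 1)) * d (p + 1 + (x + 1)) =
      ∑ x ∈ Finset.range p, (-1 : ℂ) ^ (x + 1) * d (x + 1) := by
    rw [← Finset.sum_range_reflect]
    refine Finset.sum_congr rfl fun x hx => ?_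
    rw [Finset.mem_range] at hx
    have e1 : p + 1 + (p - 1 - x + 1) = 2 * (p + 1) - (x + 1) := by omega
    rw [e1, hs (x + 1) (by omega) (by omega)]
    congr 1
    have e2 : (-1 : ℂ) ^ (2 * (p + 1) - (x + 1)) * (-1 : ℂ) ^ (x + 1) = 1 := by
      rw [← pow_add]
      have : 2 * (p + 1) - (x + 1) + (x + 1) = 2 * (p + 1) := by omega
      rw [this, pow_mul]
      norm_num
    rcases neg_one_pow_eq_or ℂ (x + 1) with e3 | e3
    · rw [e3, mul_one] at e2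
      rw [e3, e2]
    · rw [e3] at e2
      rw [e3]
      linear_combination -e2
  rw [h3, h2]
  ring

section main
variable {G : Type u} [Group G] [Fintype G]
variable {P : Sylow 2 G} {σ τ : G} {n : ℕ} {ζ : ℂ} {π : Cen (JJ σ n) →* G}

open Classical in
theorem ps_alt (h : DS P σ n) (hζ : IsPrimitiveRoot ζ (2 ^ (n - 1))) (x : Subgroup.zpowers σ) :
    ∑ k ∈ Finset.range (2 ^ (n - 1)), (-1 : ℂ) ^ k * ((ps h hζ k x : ℂˣ) : ℂ) =
      if (x : G) = JJ σ n then (2 : ℂ) ^ (n - 1) else 0 := by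
  letI := Fintype.ofFinite (Subgroup.zpowers σ)
  letI := Fintype.ofFinite (W2 σ)
  have hz := H5.DBj.zeta_half h hζ
  obtain ⟨l, rfl⟩ : ∃ l : ℕ, (gn σ) ^ l = x := by
    have h1 : x ∈ Submonoid.powers (gn σ) := by
      rw [mem_powers_iff_mem_zpowers]; exact gn_gen σ x
    exact h1
  have h1 : ∀ k, (-1 : ℂ) ^ k * ((ps h hζ k (gn σ ^ l) : ℂˣ) : ℂ) = (ζ ^ (2 ^ (n - 2) + l)) ^ k := by
    intro k
    rw [ps_pow, ← hz, ← pow_mul, ← pow_add, ← pow_mul]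
    congr 1
    ring
  rw [Finset.sum_congr rfl fun k _ => h1 k]
  have h2 : (((gn σ) ^ l : Subgroup.zpowers σ) : G) = JJ σ n ↔ ζ ^ (2 ^ (n - 2) + l) = 1 := by
    rw [hζ.pow_eq_one_iff_dvd, ← orderOf_gn h, orderOf_dvd_iff_pow_eq_one, pow_add,
      H5.DBj.gn_half σ n h.JJ_mem_z]
    constructor
    · intro h3
      have h4 : (gn σ) ^ l = (⟨JJ σ n, h.JJ_mem_z⟩ : Subgroup.zpowers σ) := Subtype.ext h3
      rw [h4]
      exact Subtype.ext h.JJ_sq
    · intro h3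
      have h4 : JJ σ n * (((gn σ) ^ l : Subgroup.zpowers σ) : G) = 1 := congrArg Subtype.val h3
      have h5 : JJ σ n * (((gn σ) ^ l : Subgroup.zpowers σ) : G) = JJ σ n * JJ σ n := by rw [h4, h.JJ_sq]
      exact mul_left_cancel h5
  split_ifs with h3
  · rw [h2.1 h3]
    simp
  · have h4 : ζ ^ (2 ^ (n - 2) + l) ≠ 1 := fun h' => h3 (h2.2 h')
    have h5 : (∑ k ∈ Finset.range (2 ^ (n - 1)), (ζ ^ (2 ^ (n - 2) + l)) ^ k) * (ζ ^ (2 ^ (n - 2) + l) - 1) = 0 := by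
      rw [geom_sum_mul, ← pow_mul, mul_comm (2 ^ (n - 2) + l), pow_mul, hζ.pow_eq_one, one_pow, sub_self]
    rcases mul_eq_zero.1 h5 with h6 | h6
    · exact h6
    · exact absurd (sub_eq_zero.1 h6) h4

theorem FF_inv (lam : Cen (JJ σ n) →* ℂˣ) (ψ : Subgroup.zpowers σ →* ℂˣ) : FF lam π ψ⁻¹ = FF lam π ψ := by
  ext c
  rw [FF, FF]
  split_ifs with h1
  · rw [MonoidHom.inv_apply, Units.val_inv_eq_inv_val, inv_inv]
    ring
  · rfl

theorem TH_inv (lam : Cen (JJ σ n) →* ℂˣ) (ψ : Subgroup.zpowers σ →* ℂˣ) : TH lam π ψ⁻¹ = TH lam π ψ := by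
  rw [TH, TH, FF_inv]

/-- the multiplicities -/
noncomputable def mm [Fintype (H0 σ n π)] (h : DS P σ n) (hζ : IsPrimitiveRoot ζ (2 ^ (n - 1)))
    (lam : Cen (JJ σ n) →* ℂˣ) (χ : G → ℂ) (k : ℕ) : ℂ :=
  classInner (fun x => ((La lam π (ps h hζ k) x : ℂˣ) : ℂ)) (fun x : H0 σ n π => χ ((x : Cen (JJ σ n)) : G))

theorem mm_alt [Fintype (H0 σ n π)] (h : DS P σ n) (hζ : IsPrimitiveRoot ζ (2 ^ (n - 1)))
    (hπ : PI P σ n π) (hτ : RF P σ τ) (lam : Cen (JJ σ n) →* ℂˣ)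
    (hl : ∀ x : Cen (JJ σ n), (∃ k : ℕ, orderOf x = 2 ^ k) → lam x = 1)
    [Fintype π.ker] (χ : G → ℂ) :
    (Nat.card π.ker : ℂ) * ∑ k ∈ Finset.range (2 ^ (n - 1)), (-1 : ℂ) ^ k * mm (π := π) h hζ lam χ k =
      ∑ u : π.ker, (lam (u : Cen (JJ σ n)) : ℂ) * conj (χ (JJ σ n * ((u : Cen (JJ σ n)) : G))) := by
  classical
  have hJc : JJ σ n ∈ Cen (JJ σ n) := P_le h h.JJ_mem
  have hJπ : π ⟨JJ σ n, hJc⟩ = JJ σ n := hπ.id ⟨JJ σ n, hJc⟩ h.JJ_mem
  have hJl : lam ⟨JJ σ n, hJc⟩ = 1 := hl _ ⟨1, by rw [pow_one, Subgroup.orderOf_mk, h.JJ_order]⟩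
  have hcard : (Nat.card (H0 σ n π) : ℂ) = (2 : ℂ) ^ (n - 1) * Nat.card π.ker := by
    have h1 := card_H0 h hπ hτ
    have h2 := Subgroup.card_mul_index π.ker
    rw [dker_index h hπ, h1] at h2
    have h3 : 2 ^ n = 2 * 2 ^ (n - 1) := by
      have := h.hn
      rw [← pow_succ']
      congr 1
      omega
    rw [h3] at h2
    have h4 : Nat.card (H0 σ n π) = 2 ^ (n - 1) * Nat.card π.ker := by
      have h5 : 2 * Nat.card (H0 σ n π) = 2 * (2 ^ (n - 1) * Nat.card π.ker) := by rw [← h2]; ring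
      exact Nat.eq_of_mul_eq_mul_left (by norm_num) h5
    rw [h4]
    push_cast
    rfl
  have hc0 : (Nat.card π.ker : ℂ) ≠ 0 := by exact_mod_cast (Nat.card_pos (α := π.ker)).ne'
  have h20 : ((2 : ℂ) ^ (n - 1)) ≠ 0 := pow_ne_zero _ (by norm_num)
  have e1 : ∑ k ∈ Finset.range (2 ^ (n - 1)), (-1 : ℂ) ^ k * mm (π := π) h hζ lam χ k =
      (Nat.card (H0 σ n π) : ℂ)⁻¹ * ∑ c : H0 σ n π, (if (rot π c : G) = JJ σ n then
        (2 : ℂ) ^ (n - 1) * ((lam (c : Cen (JJ σ n)) : ℂ) * conj (χ ((c : Cen (JJ σ n)) : G))) else 0) := by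
    have e2 : ∀ k, (-1 : ℂ) ^ k * mm (π := π) h hζ lam χ k = ∑ c : H0 σ n π, (Nat.card (H0 σ n π) : ℂ)⁻¹ *
        ((-1 : ℂ) ^ k * ((ps h hζ k (rot π c) : ℂˣ) : ℂ)) *
          ((lam (c : Cen (JJ σ n)) : ℂ) * conj (χ ((c : Cen (JJ σ n)) : G))) := by
      intro k
      show (-1 : ℂ) ^ k * ((Nat.card (H0 σ n π) : ℂ)⁻¹ * _) = _
      rw [Finset.mul_sum, Finset.mul_sum]
      refine Finset.sum_congr rfl fun c _ => ?_
      beta_reduce
      rw [La_apply]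
      ring
    rw [Finset.sum_congr rfl fun k _ => e2 k, Finset.sum_comm, Finset.mul_sum]
    refine Finset.sum_congr rfl fun c _ => ?_
    rw [← Finset.sum_mul, ← Finset.mul_sum, ps_alt h hζ]
    split_ifs
    · ring
    · ring
  rw [e1]
  have e3 : ∑ c : H0 σ n π, (if (rot π c : G) = JJ σ n then
        (2 : ℂ) ^ (n - 1) * ((lam (c : Cen (JJ σ n)) : ℂ) * conj (χ ((c : Cen (JJ σ n)) : G))) else 0) =
      ∑ u : π.ker, (2 : ℂ) ^ (n - 1) *
        ((lam (u : Cen (JJ σ n)) : ℂ) * conj (χ (JJ σ n * ((u : Cen (JJ σ n)) : G)))) := by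
    have hmem : ∀ u : π.ker, (⟨JJ σ n, hJc⟩ : Cen (JJ σ n)) * (u : Cen (JJ σ n)) ∈ H0 σ n π := by
      intro u
      rw [mem_H0, map_mul, hJπ, MonoidHom.mem_ker.1 u.2, mul_one]
      exact h.JJ_mem_z
    symm
    refine Fintype.sum_of_injective (fun u : π.ker => (⟨(⟨JJ σ n, hJc⟩ : Cen (JJ σ n)) * (u : Cen (JJ σ n)), hmem u⟩ :
      H0 σ n π)) ?_ _ _ ?_ ?_
    · intro u v huv
      have h1 := congrArg Subtype.val huv
      exact Subtype.ext (mul_left_cancel h1)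
    · intro c hc
      rw [if_neg]
      intro h1
      apply hc
      refine ⟨⟨(⟨JJ σ n, hJc⟩ : Cen (JJ σ n))⁻¹ * (c : Cen (JJ σ n)), ?_⟩, ?_⟩
      · rw [MonoidHom.mem_ker, map_mul, map_inv, hJπ]
        rw [rot_coe] at h1
        rw [h1, inv_mul_cancel]
      · apply Subtype.ext
        show (⟨JJ σ n, hJc⟩ : Cen (JJ σ n)) * ((⟨JJ σ n, hJc⟩ : Cen (JJ σ n))⁻¹ * (c : Cen (JJ σ n))) = c
        rw [mul_inv_cancel_left]
    · intro u
      rw [if_pos]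
      · show _ = (2 : ℂ) ^ (n - 1) * ((lam ((⟨JJ σ n, hJc⟩ : Cen (JJ σ n)) * (u : Cen (JJ σ n))) : ℂ) * _)
        rw [map_mul, hJl, one_mul]
        rfl
      · rw [rot_coe]
        show π ((⟨JJ σ n, hJc⟩ : Cen (JJ σ n)) * (u : Cen (JJ σ n))) = _
        rw [map_mul, hJπ, MonoidHom.mem_ker.1 u.2, mul_one]
  rw [e3, ← Finset.mul_sum, hcard]
  field_simp

theorem dchi (h : DS P σ n) (hζ : IsPrimitiveRoot ζ (2 ^ (n - 1))) (hπ : PI P σ n π) (hτ : RF P σ τ)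
    (lam : Cen (JJ σ n) →* ℂˣ) (hl : ∀ x : Cen (JJ σ n), (∃ k : ℕ, orderOf x = 2 ^ k) → lam x = 1) :
    DCHI h hζ π lam := by
  classical
  intro _ χ hχ
  letI := Fintype.ofFinite (H0 σ n π)
  rw [← mm_alt h hζ hπ hτ lam hl χ]
  congr 1
  have hd : ∀ k, classInner (TH lam π (ps h hζ k)) χ = mm (π := π) h hζ lam χ 0 - mm (π := π) h hζ lam χ k := by
    intro k
    rw [inner_TH_irr h hπ hτ lam _ hχ, mm, mm, ps_zero]
  have hq := q2 h
  have hq2 := q_ge h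
  obtain ⟨p, hp⟩ : ∃ p, 2 ^ (n - 2) = p + 1 := ⟨2 ^ (n - 2) - 1, by omega⟩
  have hev : Even (p + 1) := by
    rw [← hp]
    have h1 : n - 2 = (n - 3) + 1 := by have := h.hn; omega
    rw [h1, pow_succ]
    exact even_two.mul_left _
  have hs : ∀ k, 0 < k → k < 2 * (p + 1) → classInner (TH lam π (ps h hζ (2 * (p + 1) - k))) χ =
      classInner (TH lam π (ps h hζ k)) χ := by
    intro k hk0 hk
    rw [← hp, hq, ← inv_ps h hζ (by rw [← hq, hp]; omega), TH_inv]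
  have h00 : classInner (TH lam π (ps h hζ 0)) χ = 0 := by rw [hd, sub_self]
  have key := alt_sum (fun k => classInner (TH lam π (ps h hζ k)) χ) p hev h00 hs
  have h0 : ∑ k ∈ Finset.range (2 ^ (n - 1)), (-1 : ℂ) ^ k = 0 := by
    have h5 : (∑ k ∈ Finset.range (2 ^ (n - 1)), (-1 : ℂ) ^ k) * (-1 - 1) = 0 := by
      rw [geom_sum_mul, ← hq, pow_mul]
      norm_num
    rcases mul_eq_zero.1 h5 with h6 | h6
    · exact h6
    · norm_num at h6
  have h3 : ∑ k ∈ Finset.range (2 ^ (n - 1)), (-1 : ℂ) ^ k * mm (π := π) h hζ lam χ k =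
      - ∑ k ∈ Finset.range (2 ^ (n - 1)), (-1 : ℂ) ^ k * classInner (TH lam π (ps h hζ k)) χ := by
    have h4 : ∀ k, (-1 : ℂ) ^ k * classInner (TH lam π (ps h hζ k)) χ =
        (-1 : ℂ) ^ k * mm (π := π) h hζ lam χ 0 - (-1 : ℂ) ^ k * mm (π := π) h hζ lam χ k := by
      intro k
      rw [hd]; ring
    rw [Finset.sum_congr rfl fun k _ => h4 k, Finset.sum_sub_distrib, ← Finset.sum_mul, h0]
    ring
  rw [h3]
  have h5 : ∑ j : Fin (2 ^ (n - 2) - 1), (-1 : ℂ) ^ (j : ℕ) * classInner (TH lam π (pj h hζ j)) χ =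
      ∑ j ∈ Finset.range p, (-1 : ℂ) ^ j * classInner (TH lam π (ps h hζ (j + 1))) χ := by
    have hp' : 2 ^ (n - 2) - 1 = p := by omega
    rw [← hp', Finset.sum_range]
    rfl
  rw [h5, l0, ← hq, hp, key]
  ring

end main

end H4.TW
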